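import Mathlib
import Cfsg.Agent.Lib.Helper58.UPair.Defs

/-!
# UPAIR (S5984): the tiny packages [PERM], [CONJ], [CONJIN] on the stabilizer of a decomposition.
-/

set_option autoImplicit false
open scoped MatrixGroups Matrix

namespace Cfsg.Agent.Lib.Helper25.UPair

open Cfsg.Agent.Lib.Helper58.UPair

universe u

theorem map_toLin_mul {F : Type u} [Field F] {n : ℕ} (a b : GL (Fin n) F)
    (W : Submodule F (Fin n → F)) :
    W.map (Matrix.toLin' ((a * b : GL (Fin n) F) : Matrix (Fin n) (Fin n) F)) =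
      (W.map (Matrix.toLin' (b : Matrix (Fin n) (Fin n) F))).map
        (Matrix.toLin' (a : Matrix (Fin n) (Fin n) F)) := by
  rw [Units.val_mul, Matrix.toLin'_mul, Submodule.map_comp]

theorem map_toLin_one {F : Type u} [Field F] {n : ℕ} (W : Submodule F (Fin n → F)) :
    W.map (Matrix.toLin' (((1 : GL (Fin n) F)) : Matrix (Fin n) (Fin n) F)) = W := by
  rw [Units.val_one, Matrix.toLin'_one, Submodule.map_id]

/-- **[PERM]** an element of the stabilizer fixes both members or swaps them. -/
theorem pkgPerm : PkgPerm.{u} := by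
  intro F _ n D x hx
  obtain ⟨σ, hσ⟩ := hx
  have h2 : ∀ j : Fin 2, j = 0 ∨ j = 1 := by decide
  rcases h2 (σ 0) with h0 | h0
  · left
    have h1 : σ 1 = 1 := by
      rcases h2 (σ 1) with h | h
      · have h3 := σ.injective (h.trans h0.symm)
        exact absurd h3 (by decide)
      · exact h
    intro i
    rcases h2 i with rfl | rfl
    · rw [hσ, h0]
    · rw [hσ, h1]
  · right
    have h1 : σ 1 = 0 := by
      rcases h2 (σ 1) with h | h
      · exact h
      · have h3 := σ.injective (h.trans h0.symm)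
        exact absurd h3 (by decide)
    exact ⟨by rw [hσ, h0], by rw [hσ, h1]⟩

/-- **[CONJ]** `g⁻¹ x g` stabilizes `D` implies `x` stabilizes `g D`. -/
theorem pkgConj : PkgConj.{u} := by
  intro F _ n D g x hx
  obtain ⟨σ, hσ⟩ := hx
  refine ⟨σ, fun i => ?_⟩
  show ((D i).map (Matrix.toLin' (g : Matrix (Fin n) (Fin n) F))).map
      (Matrix.toLin' (x : Matrix (Fin n) (Fin n) F)) =
    (D (σ i)).map (Matrix.toLin' (g : Matrix (Fin n) (Fin n) F))
  rw [← map_toLin_mul, show x * g = g * (g⁻¹ * x * g) by group, map_toLin_mul, hσ]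

/-- **[CONJIN]** if `g` maps `D` to `D'` and `x` fixes `D'` then `g⁻¹ x g` stabilizes `D`. -/
theorem pkgConjIn : PkgConjIn.{u} := by
  intro F _ n D D' g x hg hx
  refine ⟨1, fun i => ?_⟩
  rw [Equiv.Perm.one_apply, map_toLin_mul, map_toLin_mul, hg, hx i, ← hg, ← map_toLin_mul,
    inv_mul_cancel, map_toLin_one]

end Cfsg.Agent.Lib.Helper25.UPair
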